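import Cfsg.Agent.SelfCentPrime.Basic
import Cfsg.Agent.Chars.SmallDegreeTI.Main
import Cfsg.Agent.Chars.DetRegular.Basic
import Cfsg.Agent.Chars.Induced.Det
import Mathlib.RingTheory.IntegralDomain
import Mathlib.GroupTheory.SpecificGroups.Cyclic
import Mathlib.RingTheory.ZMod.UnitsCyclic

/-!
# Self-centralizing elements of prime order and characters of degree `p - 1`

The restriction of such a character to `⟨x⟩` misses the trivial character, so its restriction to a
complement of `⟨x⟩` in the normalizer is a multiple of the regular character.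
-/

set_option autoImplicit false

namespace CfsgLib.SelfCentDet

open Cfsg CfsgLib.Chars CfsgLib.SelfCentPrime
open scoped Classical

variable {G : Type*} [Group G] [Fintype G] {p : ℕ} {x : G}

theorem setting (h : SelfCent G p x) :
    CfsgLib.SmallDegreeTI.Setting (Subgroup.zpowers x) (⊥ : Subgroup G) := by
  have hC : Subgroup.centralizer ((Subgroup.zpowers x : Subgroup G) : Set G) =
      Subgroup.zpowers x := by
    rw [Subgroup.zpowers_eq_closure, Subgroup.centralizer_closure, ← Subgroup.zpowers_eq_closure]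
    exact h.cent
  refine ⟨fun a ha b hb => ?_, fun z hz hz1 => by rw [cent_mem h hz hz1, hC], fun v hv a _ => ?_,
    by rw [Subgroup.card_bot]; exact Nat.coprime_one_right _, by rw [hC, Subgroup.card_bot, mul_one]⟩
  · obtain ⟨i, rfl⟩ := ha; obtain ⟨j, rfl⟩ := hb
    exact (Commute.zpow_zpow_self x i j).eq
  · rw [Subgroup.mem_bot.1 hv, one_mul, mul_one]

theorem card_nor (h : SelfCent G p x) :
    Nat.card (nor x) = p * (Subgroup.zpowers x).relIndex (nor x) := by
  have := Subgroup.relIndex_mul_relIndex ⊥ (Subgroup.zpowers x) (nor x) bot_le zpowers_le_nor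
  rwa [Subgroup.relIndex_bot_left, Subgroup.relIndex_bot_left, card_zpowers' h, eq_comm] at this

theorem mem_nor_of_conj_mem (h : SelfCent G p x) {g u : G} (hu : u ∈ Subgroup.zpowers x)
    (hu1 : u ≠ 1) (hg : g * u * g⁻¹ ∈ Subgroup.zpowers x) : g ∈ nor x := by
  refine CfsgLib.SmallDegreeTI.mem_normalizer_of_conj_le fun y hy => ?_
  rw [← zpowers_eq_of_mem h hu hu1] at hy
  obtain ⟨i, rfl⟩ := hy
  show g * u ^ i * g⁻¹ ∈ _
  rw [← conj_zpow]
  exact zpow_mem hg i

/-- Each class meets `⟨x⟩ \ 1` in `e` elements. -/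
theorem card_conj_fibre (h : SelfCent G p x) {u : Subgroup.zpowers x} (hu : u ≠ 1) :
    ((((Finset.univ : Finset (Subgroup.zpowers x)).erase 1)).filter
        fun v : Subgroup.zpowers x => ConjClasses.mk (v : G) = ConjClasses.mk (u : G)).card =
      (Subgroup.zpowers x).relIndex (nor x) := by
  have hu' : (u : G) ≠ 1 := fun e => hu (Subtype.ext e)
  let f : nor x → Subgroup.zpowers x := fun g =>
    ⟨(g : G) * u * (g : G)⁻¹, ((Subgroup.mem_normalizer_iff.1 g.2) _).1 u.2⟩
  have hmaps : ∀ g ∈ (Finset.univ : Finset (nor x)), f g ∈ (((Finset.univ : Finset (Subgroup.zpowers x)).erase 1)).filter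
      (fun v : Subgroup.zpowers x => ConjClasses.mk (v : G) = ConjClasses.mk (u : G)) := by
    intro g _
    refine Finset.mem_filter.2 ⟨Finset.mem_erase.2 ⟨fun e => hu' (conj_eq_one_iff.1 (congrArg Subtype.val e)),
      Finset.mem_univ _⟩, ?_⟩
    exact ConjClasses.mk_eq_mk_iff_isConj.2 (isConj_iff.2 ⟨(g : G)⁻¹, by simp [f, mul_assoc]⟩)
  have hcount := Finset.card_eq_sum_card_fiberwise hmaps
  rw [Finset.sum_congr rfl (fun v hv => show (Finset.univ.filter fun g => f g = v).card = p from ?_),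
    Finset.sum_const, smul_eq_mul, Finset.card_univ, ← Nat.card_eq_fintype_card, card_nor h,
    mul_comm _ p] at hcount
  · exact (Nat.eq_of_mul_eq_mul_left h.prime.pos hcount).symm
  · obtain ⟨hv, hvu⟩ := Finset.mem_filter.1 hv
    obtain ⟨g₀, hg₀⟩ := isConj_iff.1 (ConjClasses.mk_eq_mk_iff_isConj.1 hvu.symm)
    have hg₀n : g₀ ∈ nor x := mem_nor_of_conj_mem h u.2 hu' (hg₀ ▸ v.2)
    rw [← Fintype.card_subtype, ← Nat.card_eq_fintype_card, ← card_zpowers' h]
    refine Nat.card_congr ⟨fun g => ⟨g₀⁻¹ * (g.1 : G), ?_⟩,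
      fun w => ⟨⟨g₀ * w, mul_mem hg₀n (zpowers_le_nor w.2)⟩, ?_⟩,
      fun g => Subtype.ext (Subtype.ext (mul_inv_cancel_left _ _)),
      fun w => Subtype.ext (inv_mul_cancel_left _ _)⟩
    · refine (cent_mem h u.2 hu').le (Subgroup.mem_centralizer_singleton_iff.2 ?_)
      have e1 : (g.1 : G) * u * (g.1 : G)⁻¹ = g₀ * u * g₀⁻¹ :=
        (congrArg Subtype.val g.2).trans hg₀.symm
      have e2 := congrArg (fun z => g₀⁻¹ * z * (g.1 : G)) e1
      simpa [mul_assoc] using e2
    · apply Subtype.ext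
      show g₀ * (w : G) * u * (g₀ * (w : G))⁻¹ = v
      rw [← hg₀]
      have : (w : G) * u = u * w := (setting h).comm _ w.2 _ u.2
      rw [mul_assoc g₀ (w : G) u, this]
      group

/-- The sum of a class function over `⟨x⟩ \ 1` is `e` times an algebraic integer. -/
theorem exists_integral_sum (h : SelfCent G p x) {f : G → ℂ} (hf : IsCharacter G f) :
    ∃ s : ℂ, IsIntegral ℤ s ∧
      ∑ u ∈ ((Finset.univ : Finset (Subgroup.zpowers x)).erase 1), f u =
        ((Subgroup.zpowers x).relIndex (nor x) : ℂ) * s := by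
  refine ⟨∑ C ∈ (((Finset.univ : Finset (Subgroup.zpowers x)).erase 1)).image
    (fun u : Subgroup.zpowers x => ConjClasses.mk (u : G)), f C.out,
    IsIntegral.sum _ fun C _ => isIntegral_apply hf _, ?_⟩
  rw [← Finset.sum_fiberwise_of_maps_to (g := fun u : Subgroup.zpowers x => ConjClasses.mk (u : G))
    (fun u hu => Finset.mem_image_of_mem (fun u : Subgroup.zpowers x => ConjClasses.mk (u : G)) hu), Finset.mul_sum]
  refine Finset.sum_congr rfl fun C hC => ?_
  obtain ⟨u, hu, rfl⟩ := Finset.mem_image.1 hC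
  rw [Finset.sum_congr rfl (g := fun _ => f (ConjClasses.mk (u : G)).out) (fun v hv => ?_),
    Finset.sum_const, nsmul_eq_mul, card_conj_fibre h (Finset.ne_of_mem_erase hu)]
  refine eq_of_isConj (isClassFunction_of_isCharacter hf) ?_
  rw [← ConjClasses.mk_eq_mk_iff_isConj, (Finset.mem_filter.1 hv).2]
  exact (Quotient.out_eq _).symm

/-- `χ` has no trivial constituent on `⟨x⟩`. -/
theorem sum_zpowers_eq_zero (h : SelfCent G p x) (χ : IrrCharacter G)
    (hχ : charDegree (χ : G → ℂ) + 1 = p) {t : ℕ}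
    (hte : t * (Subgroup.zpowers x).relIndex (nor x) = p - 1)
    (he : 2 ≤ (Subgroup.zpowers x).relIndex (nor x)) :
    ∑ u : Subgroup.zpowers x, (χ : G → ℂ) u = 0 := by
  set e := (Subgroup.zpowers x).relIndex (nor x)
  set d := charDegree (χ : G → ℂ) with hd
  have S := setting h
  obtain ⟨a, ha⟩ := CfsgLib.SmallDegreeTI.exists_nat_mult (P := Subgroup.zpowers x) (isCharacter_coe χ) (oneChar (Subgroup.zpowers x))
  have hpC : (p : ℂ) ≠ 0 := Nat.cast_ne_zero.2 h.prime.ne_zero
  have hPcard : Nat.card (Subgroup.zpowers x) = p := card_zpowers' h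
  have hsum : ∑ u : (Subgroup.zpowers x), (χ : G → ℂ) u = (p : ℂ) * a := by
    rw [← ha, CfsgLib.SmallDegreeTI.eig_oneChar S.comm, hPcard, ← mul_assoc,
      mul_inv_cancel₀ hpC, one_mul]
    simp
  suffices ha0 : a = 0 by rw [hsum, ha0, Nat.cast_zero, mul_zero]
  have hsplit : (d : ℂ) + ∑ u ∈ ((Finset.univ : Finset (Subgroup.zpowers x)).erase 1), (χ : G → ℂ) u = (p : ℂ) * a := by
    rw [← hsum, ← Finset.add_sum_erase _ _ (Finset.mem_univ (1 : (Subgroup.zpowers x))), OneMemClass.coe_one,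
      hd, coe_charDegree]
  -- `e` divides `a`
  have hdvd : e ∣ a := by
    obtain ⟨s, hs, (hs' : _ = (e : ℂ) * s)⟩ := exists_integral_sum h (isCharacter_coe χ)
    have hint : IsIntegral ℤ (((a * p : ℕ) : ℂ) / (e : ℂ)) := by
      have heC : (e : ℂ) ≠ 0 := Nat.cast_ne_zero.2 (by omega)
      have hdte : (d : ℂ) = (t : ℂ) * e := by
        rw [← Nat.cast_mul, hte]; congr 1; omega
      have : ((a * p : ℕ) : ℂ) / (e : ℂ) = (t : ℂ) + s := by
        rw [Nat.cast_mul, mul_comm (a : ℂ), ← hsplit, hs', hdte]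
        field_simp
      rw [this]
      exact (isIntegral_algebraMap (R := ℤ) (x := (t : ℤ))).add hs |> fun h' => by simpa using h'
    have h1 := dvd_of_isIntegral_div (by omega) hint
    refine Nat.Coprime.dvd_of_dvd_mul_right ?_ h1
    refine ((h.prime.coprime_iff_not_dvd).2 fun hdv => ?_).symm
    have h2 : 0 < e := by omega
    have := Nat.le_of_dvd h2 hdv
    have h3 : 0 < t := by
      rcases Nat.eq_zero_or_pos t with rfl | h3
      · simp at hte; have := h.prime.two_le; omega
      · exact h3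
    have : e ≤ t * e := Nat.le_mul_of_pos_left e h3
    omega
  -- the norm bound
  choose m hm using CfsgLib.SmallDegreeTI.exists_nat_mult (P := Subgroup.zpowers x) (isCharacter_coe χ)
  have hmsum : ∑ μ : IrrCharacter (Subgroup.zpowers x), m μ = d := by
    rw [← Nat.cast_inj (R := ℂ), Nat.cast_sum, hd, coe_charDegree,
      CfsgLib.SmallDegreeTI.eig_expansion_one S.comm (χ : G → ℂ) 1]
    exact Finset.sum_congr rfl fun μ _ => (hm μ).symm
  have hpars : ∑ u : (Subgroup.zpowers x), ‖(χ : G → ℂ) u‖ ^ 2 = (p : ℝ) * ∑ μ : IrrCharacter (Subgroup.zpowers x), (m μ : ℝ) ^ 2 := by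
    have := CfsgLib.SmallDegreeTI.eig_parseval S.comm (χ : G → ℂ) 1
    simp only [mul_one, hm, Complex.norm_natCast, hPcard] at this
    exact this
  have hti := S.ti_sum_le (isClassFunction_coe χ)
  have hG : ∑ g : G, ‖(χ : G → ℂ) g‖ ^ 2 = (Nat.card G : ℝ) := by
    apply Complex.ofReal_injective
    rw [CfsgLib.SmallDegreeTI.norm_sq_sum_eq, classInner_self, mul_one, Complex.ofReal_natCast]
  have hd1 : ‖(χ : G → ℂ) 1‖ = (d : ℝ) := by
    rw [← coe_charDegree, Complex.norm_natCast]
  have hbot : ∀ u : (Subgroup.zpowers x), ∑ v : (⊥ : Subgroup G), ‖(χ : G → ℂ) (u * v)‖ ^ 2 = ‖(χ : G → ℂ) u‖ ^ 2 := by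
    intro u
    rw [Finset.sum_congr rfl (g := fun _ => ‖(χ : G → ℂ) u‖ ^ 2) (fun v _ => by
      rw [Subgroup.mem_bot.1 v.2, mul_one]), Finset.sum_const, Finset.card_univ,
      ← Nat.card_eq_fintype_card, Subgroup.card_bot, one_smul]
  rw [hG, hd1, Finset.sum_congr rfl (fun u _ => hbot u)] at hti
  have hP1 := Finset.add_sum_erase Finset.univ (fun u : (Subgroup.zpowers x) => ‖(χ : G → ℂ) u‖ ^ 2) (Finset.mem_univ 1)
  rw [hpars, OneMemClass.coe_one, hd1] at hP1
  have hGcard : (Nat.card G : ℝ) = ((nor x).index : ℝ) * ((p : ℝ) * e) := by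
    rw [← Subgroup.card_mul_index (nor x), card_nor h]; push_cast; ring
  rw [hGcard] at hti
  set T := ∑ u ∈ ((Finset.univ : Finset (Subgroup.zpowers x)).erase 1), ‖(χ : G → ℂ) u‖ ^ 2 with hT
  have hdpos : (0 : ℝ) < d := by
    have := h.prime.two_le
    exact_mod_cast (show 0 < d by omega)
  have hidx : (0 : ℝ) < ((nor x).index : ℝ) := by
    exact_mod_cast Nat.pos_of_ne_zero Subgroup.index_ne_zero_of_finite
  have hTlt : T < (p : ℝ) * e := by
    have h1 : ((nor x).index : ℝ) * T < ((nor x).index : ℝ) * ((p : ℝ) * e) := by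
      have h0 : (0 : ℝ) < (d : ℝ) ^ 2 := by positivity
      exact lt_of_lt_of_le (lt_add_of_pos_left _ h0) hti
    exact lt_of_mul_lt_mul_left h1 hidx.le
  -- squares dominate
  have hone : m (oneChar (Subgroup.zpowers x)) = a := by exact_mod_cast (hm (oneChar (Subgroup.zpowers x))).symm.trans ha
  have hsq : a * a + d ≤ (∑ μ : IrrCharacter (Subgroup.zpowers x), m μ * m μ) + a := by
    rw [← hmsum, ← Finset.add_sum_erase _ _ (Finset.mem_univ (oneChar (Subgroup.zpowers x))),
      ← Finset.add_sum_erase (f := fun μ => m μ * m μ) _ (Finset.mem_univ (oneChar (Subgroup.zpowers x))), hone]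
    have : ∑ μ ∈ Finset.univ.erase (oneChar (Subgroup.zpowers x)), m μ ≤ ∑ μ ∈ Finset.univ.erase (oneChar (Subgroup.zpowers x)), m μ * m μ :=
      Finset.sum_le_sum fun μ _ => Nat.le_mul_self _
    omega
  have hsqR : (a : ℝ) * a + d ≤ (∑ μ : IrrCharacter (Subgroup.zpowers x), (m μ : ℝ) ^ 2) + a := by
    simp only [pow_two]
    exact_mod_cast hsq
  obtain ⟨c, rfl⟩ := hdvd
  rcases Nat.eq_zero_or_pos c with rfl | hc
  · rw [mul_zero]
  exfalso
  have hc1 : (1 : ℝ) ≤ c := by exact_mod_cast hc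
  have he2 : (2 : ℝ) ≤ e := by exact_mod_cast he
  have hpd : (p : ℝ) = d + 1 := by exact_mod_cast hχ.symm
  push_cast at hsqR
  have hp0 : (0 : ℝ) < p := by exact_mod_cast h.prime.pos
  have h1 : (p : ℝ) * ((e * c) * (e * c) + d - e * c) ≤ p * ∑ μ : IrrCharacter (Subgroup.zpowers x), (m μ : ℝ) ^ 2 :=
    mul_le_mul_of_nonneg_left (by linarith) hp0.le
  have h2 : (e : ℝ) * (e - 1) ≤ (e * c) * (e * c) - e * c := by
    have hx1 : (e : ℝ) ≤ e * c := le_mul_of_one_le_right (by linarith) hc1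
    nlinarith [mul_nonneg (sub_nonneg.2 hx1) (show (0 : ℝ) ≤ e * c + e - 1 by nlinarith)]
  have h3 : (p : ℝ) * ((e : ℝ) * (e - 1)) ≤ p * ((e * c) * (e * c) - e * c) :=
    mul_le_mul_of_nonneg_left h2 hp0.le
  have h4 : (p : ℝ) * e ≤ (p : ℝ) * ((e : ℝ) * (e - 1)) :=
    mul_le_mul_of_nonneg_left (le_mul_of_one_le_right (by linarith) (by linarith)) hp0.le
  have h5 : (p : ℝ) * d - d ^ 2 = d := by rw [hpd]; ring
  linarith

theorem exists_det_neg_one (h : SelfCent G p x) (χ : IrrCharacter G)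
    (hχ : charDegree (χ : G → ℂ) + 1 = p) {t : ℕ}
    (hte : t * (Subgroup.zpowers x).relIndex (nor x) = p - 1)
    (he : 2 ≤ (Subgroup.zpowers x).relIndex (nor x)) (ht : Odd t)
    (heven : Even ((Subgroup.zpowers x).relIndex (nor x))) :
    ∃ (l : G →* ℂˣ) (g : G), (l g : ℂ) = -1 := by
  have hsum := sum_zpowers_eq_zero h χ hχ hte he
  have hne : Fact p.Prime := ⟨h.prime⟩
  set e := (Subgroup.zpowers x).relIndex (nor x)
  obtain ⟨n, ρ, -, hρ⟩ := χ.2
  have hPcard : Nat.card (Subgroup.zpowers x) = p := card_zpowers' h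
  -- the averaging projection vanishes
  set E : Module.End ℂ (Fin n → ℂ) := (p : ℂ)⁻¹ • ∑ u : (Subgroup.zpowers x), ρ (u : G)
  have hidem : E * E = E := by
    have h1 : ∀ v : (Subgroup.zpowers x), ρ (v : G) * ∑ u : (Subgroup.zpowers x), ρ (u : G) = ∑ u : (Subgroup.zpowers x), ρ (u : G) := fun v => by
      rw [Finset.mul_sum]
      exact Fintype.sum_equiv (Equiv.mulLeft v) _ _ fun u => by simp
    simp only [E, smul_mul_assoc, mul_smul_comm, Finset.sum_mul, h1, Finset.sum_const,
      Finset.card_univ, ← Nat.card_eq_fintype_card, hPcard, ← Nat.cast_smul_eq_nsmul ℂ, smul_smul]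
    congr 1
    rw [inv_mul_cancel₀ (Nat.cast_ne_zero.2 h.prime.ne_zero : (p : ℂ) ≠ 0), mul_one]
  have hE : ∑ u : (Subgroup.zpowers x), ρ (u : G) = 0 := by
    have h0 : E = 0 := CfsgLib.DetRegular.eq_zero_of_trace_eq_zero hidem (by
      simp only [E, map_smul, map_sum]
      rw [show (∑ u : (Subgroup.zpowers x), LinearMap.trace ℂ (Fin n → ℂ) (ρ (u : G))) = 0 from ?_, smul_zero]
      rw [← hsum]
      exact Finset.sum_congr rfl fun u _ => congrFun hρ (u : G))
    exact (smul_eq_zero.1 h0).resolve_left (inv_ne_zero (Nat.cast_ne_zero.2 h.prime.ne_zero))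
  -- vanishing off `(Subgroup.zpowers x)`
  have hvan : ∀ z ∈ nor x, z ∉ (Subgroup.zpowers x) → (χ : G → ℂ) z = 0 := by
    intro z hz hzP
    let f : (Subgroup.zpowers x) → (Subgroup.zpowers x) := fun w => ⟨z⁻¹ * (w : G) * z * (w : G)⁻¹, mul_mem (by
      have := ((Subgroup.mem_normalizer_iff.1 (inv_mem hz)) (w : G)).1 w.2
      simpa using this) (inv_mem w.2)⟩
    have hf : Function.Injective f := by
      intro w w' hw
      by_contra hne'
      apply hzP
      have e1 : (z⁻¹ * (w : G) * z) * (w : G)⁻¹ = (z⁻¹ * (w' : G) * z) * (w' : G)⁻¹ :=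
        congrArg Subtype.val hw
      have hne1 : ((w' : G)⁻¹ * w) ≠ 1 := fun e0 => hne' (Subtype.ext (inv_mul_eq_one.1 e0).symm)
      have hmem : ((w' : G)⁻¹ * w) ∈ (Subgroup.zpowers x) := mul_mem (inv_mem w'.2) w.2
      rw [← cent_mem h hmem hne1, Subgroup.mem_centralizer_singleton_iff]
      have e2 := congrArg (fun q => (w' : G)⁻¹ * (z * q * w)) e1
      simp only [mul_assoc, mul_inv_cancel_left, inv_mul_cancel, mul_one, inv_mul_cancel_left] at e2
      simpa [mul_assoc] using e2.symm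
    have hconst : ∀ u : (Subgroup.zpowers x), (χ : G → ℂ) (z * u) = (χ : G → ℂ) z := by
      intro u
      obtain ⟨w, hw⟩ := (Finite.injective_iff_surjective.1 hf) u
      have : z * (u : G) = (w : G) * z * (w : G)⁻¹ := by
        rw [← hw]; simp [f, mul_assoc]
      rw [this, isClassFunction_coe χ]
    have h0 : ∑ u : (Subgroup.zpowers x), (χ : G → ℂ) (z * u) = 0 := by
      rw [Finset.sum_congr rfl (g := fun u : (Subgroup.zpowers x) => LinearMap.trace ℂ (Fin n → ℂ) (ρ z * ρ (u : G)))
        (fun u _ => by rw [← map_mul]; exact (congrFun hρ _).symm), ← map_sum, ← Finset.mul_sum,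
        hE, mul_zero, map_zero]
    rw [Finset.sum_congr rfl (fun u _ => hconst u), Finset.sum_const, Finset.card_univ,
      ← Nat.card_eq_fintype_card, hPcard, nsmul_eq_mul] at h0
    exact (mul_eq_zero.1 h0).resolve_left (Nat.cast_ne_zero.2 h.prime.ne_zero)
  -- an element of order `e`
  haveI : IsCyclic (Subgroup.zpowers x) := isCyclic_of_prime_card hPcard
  haveI : IsCyclic (ZMod (Nat.card (Subgroup.zpowers x)))ˣ := by rw [hPcard]; exact ZMod.isCyclic_units_prime h.prime
  haveI : IsCyclic (MulAut (Subgroup.zpowers x)) :=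
    isCyclic_of_injective (IsCyclic.mulAutMulEquiv (Subgroup.zpowers x)).toMonoidHom
      (IsCyclic.mulAutMulEquiv (Subgroup.zpowers x)).injective
  set φ := (Subgroup.zpowers x).normalizerMonoidHom with hφdef
  have hker : φ.ker = (Subgroup.zpowers x).subgroupOf (nor x) := by
    have hCx : Subgroup.centralizer ((Subgroup.zpowers x : Subgroup G) : Set G) =
        Subgroup.zpowers x := by
      rw [Subgroup.zpowers_eq_closure, Subgroup.centralizer_closure,
        ← Subgroup.zpowers_eq_closure]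
      exact h.cent
    rw [Subgroup.normalizerMonoidHom_ker, hCx]
  have hrange : Nat.card φ.range = e := by
    rw [← Subgroup.index_ker, hker]; rfl
  obtain ⟨⟨-, y₀, rfl⟩, hgen⟩ := IsCyclic.exists_ofOrder_eq_natCard (α := φ.range)
  rw [hrange] at hgen
  have hpe : e.Coprime p := by
    refine ((h.prime.coprime_iff_not_dvd).2 fun hdv => ?_).symm
    have := Nat.le_of_dvd (show 0 < e by omega) hdv
    have : e ≤ t * e := Nat.le_mul_of_pos_left e ht.pos
    omega
  set y : nor x := y₀ ^ p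
  have hgen' : orderOf (φ y₀) = e := (Subgroup.orderOf_coe _).trans hgen
  have hordy : orderOf (φ y) = e := by
    rw [map_pow, Nat.Coprime.orderOf_pow]
    · exact hgen'
    · rw [hgen']; exact hpe
  have hye : (y : G) ^ e = 1 := by
    rw [← Subgroup.coe_pow, ← pow_mul, ← card_nor h, pow_card_eq_one', OneMemClass.coe_one]
  have htr : ∀ i, 0 < i → i < e → LinearMap.trace ℂ (Fin n → ℂ) ((ρ (y : G)) ^ i) = 0 := by
    intro i hi0 hie
    rw [← map_pow, show LinearMap.trace ℂ (Fin n → ℂ) (ρ ((y : G) ^ i)) = (χ : G → ℂ) ((y : G) ^ i)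
      from congrFun hρ _]
    refine hvan _ (pow_mem y.2 i) fun hm => ?_
    have hk : y ^ i ∈ φ.ker := by rw [hker, Subgroup.mem_subgroupOf]; exact hm
    rw [MonoidHom.mem_ker, map_pow, ← orderOf_dvd_iff_pow_eq_one, hordy] at hk
    exact absurd (Nat.le_of_dvd hi0 hk) (by omega)
  have hdim : Module.finrank ℂ (Fin n → ℂ) = t * e := by
    rw [hte, Module.finrank_fin_fun]
    have h1 := congrFun hρ 1
    rw [Representation.char_one, Module.finrank_fin_fun, ← coe_charDegree, Nat.cast_inj] at h1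
    omega
  refine ⟨CfsgLib.Chars.Induced.repDet ρ, (y : G), ?_⟩
  rw [CfsgLib.Chars.Induced.repDet_apply,
    CfsgLib.DetRegular.det_eq_neg_one_pow (show 0 < e by omega) _ (by rw [← map_pow, hye, map_one])
      htr hdim]
  exact Odd.neg_one_pow ((Nat.Even.sub_odd (by omega) heven odd_one).mul ht)

theorem main (h : SelfCent G p x) {t : ℕ}
    (ht : Nat.card {C : ConjClasses G // ∃ g ∈ C.carrier, orderOf g = p} = t)
    (χ : IrrCharacter G) (hχ : charDegree (χ : G → ℂ) + 1 = p) :
    Even t ∨ Even (commutator G).index := by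
  have hte := classes_mul h ht
  by_cases ht1 : t = p - 1
  · rcases h.prime.eq_two_or_odd' with hp | hp
    · exact Or.inr (by rw [(commutator_complement h ht ht1).2.1, hp]; exact even_two)
    · exact Or.inl (by rw [ht1]; exact Nat.Odd.sub_odd hp odd_one)
  rcases Nat.even_or_odd t with ht2 | ht2
  · exact Or.inl ht2
  have h0 : 0 < p - 1 := Nat.sub_pos_of_lt h.prime.one_lt
  have he : 2 ≤ (Subgroup.zpowers x).relIndex (nor x) := by
    by_contra hlt
    generalize (Subgroup.zpowers x).relIndex (nor x) = e at hte hlt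
    rcases (show e = 0 ∨ e = 1 by omega) with rfl | rfl
    · rw [mul_zero] at hte; omega
    · rw [mul_one] at hte; exact ht1 hte
  rcases h.prime.eq_two_or_odd' with hp | hp
  · exfalso
    have := Nat.le_mul_of_pos_left ((Subgroup.zpowers x).relIndex (nor x)) ht2.pos
    omega
  have heven : Even ((Subgroup.zpowers x).relIndex (nor x)) := by
    have h1 : Even (p - 1) := Nat.Odd.sub_odd hp odd_one
    rw [← hte, Nat.even_mul] at h1
    exact h1.resolve_left (Nat.not_even_iff_odd.2 ht2)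
  obtain ⟨l, g, hg⟩ := exists_det_neg_one h χ hχ hte he ht2 heven
  refine Or.inr (even_iff_two_dvd.2 ?_)
  have h2 : orderOf (l g) = 2 := by
    refine orderOf_eq_prime (Units.ext ?_) fun e1 => ?_
    · rw [Units.val_pow_eq_pow_val, hg]; norm_num
    · rw [e1] at hg; norm_num at hg
  have h3 : 2 ∣ Nat.card l.range := by
    rw [← h2]; exact Subgroup.orderOf_dvd_natCard _ ⟨g, rfl⟩
  rw [← Subgroup.index_ker] at h3
  exact h3.trans (Subgroup.index_dvd_of_le (Abelianization.commutator_subset_ker l))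

end CfsgLib.SelfCentDet
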